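import Cfsg.Agent.H86.Hall.Frame
import Cfsg.Agent.Cit.Defs

/-!
# Components of groups with a frame of type `E₆^ε(q)` (helper86)
-/

set_option autoImplicit false

namespace Cfsg.Agent.H86.Hall

open Subgroup Cfsg Cfsg.Agent.Cit Cfsg.Agent.H125.Hall
open Cfsg.Agent.SignalizersComponents.Components

/-- the facts on tightly embedded subgroups (T2, T3, T4) -/
structure Tight (A : Type*) [Group A] : Prop where
  le_or_comm : ∀ {t : A} {Q K L : Subgroup A}, TQ t Q K → Cfsg.IsComponent L → (∀ x ∈ L, t * x = x * t) →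
    L ≤ K ∨ ∀ x ∈ L, ∀ y ∈ K, x * y = y * x
  Q_norm : ∀ {t : A} {Q K L : Subgroup A}, TQ t Q K → Cfsg.IsComponent L → Odd (Nat.card (Subgroup.center L)) →
    (¬ ∀ x ∈ L, t * x = x * t) → ∀ a ∈ Q, ∀ x ∈ L, a * x * a⁻¹ ∈ L
  comm_sylow : ∀ {t : A} {Q K L : Subgroup A}, TQ t Q K → Cfsg.IsComponent L →
    (∀ a ∈ Q, ∀ x ∈ L, a * x * a⁻¹ ∈ L) → t ∉ L → ∀ S : Sylow 2 A, Q ≤ (S : Subgroup A) →
    ∀ a ∈ Q, ∀ x ∈ L, x ∈ (S : Subgroup A) → a * x = x * a

section general

variable {A : Type*} [Group A]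

/-- `x` acts non-trivially on `M` -/
def NT (x : A) (M : Subgroup A) : Prop := ¬ ∀ y ∈ M, x * y = y * x

theorem NT.cj {x : A} {M : Subgroup A} (h : NT x M) (s : A) : NT (s * x * s⁻¹) (cj s M) := by
  intro h1
  apply h
  intro y hy
  have h2 := h1 _ (conj_mem_cj (g := s) hy)
  have h3 : s * (x * y) * s⁻¹ = s * (y * x) * s⁻¹ := by
    calc s * (x * y) * s⁻¹ = s * x * s⁻¹ * (s * y * s⁻¹) := by group
      _ = s * y * s⁻¹ * (s * x * s⁻¹) := h2
      _ = s * (y * x) * s⁻¹ := by group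
  exact mul_left_cancel (mul_right_cancel h3)

/-- distinct components commute elementwise -/
theorem comm_of_ne {E F : Subgroup A} (hE : IsComponent E) (hF : IsComponent F) (hne : E ≠ F)
    {x y : A} (hx : x ∈ E) (hy : y ∈ F) : x * y = y * x :=
  (mem_centralizer_iff.1 (component_le_centralizer_of_ne hF hE hne.symm hy) x hx)

/-- an element of a component acts non-trivially on at most that component -/
theorem NT.not_mem {x : A} {M N : Subgroup A} (h : NT x M) (hM : IsComponent M) (hN : IsComponent N)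
    (hne : M ≠ N) : x ∉ N := by
  intro hx
  exact h fun y hy => comm_of_ne hN hM hne.symm hx hy

variable [Finite A]

/-- a subgroup which is normalised by `S` and intersects `S` trivially has odd order -/
theorem odd_card {C : Subgroup A} (S : Sylow 2 A) (hn : ∀ s ∈ (S : Subgroup A), ∀ x ∈ C, s * x * s⁻¹ ∈ C)
    (h : ∀ x ∈ (S : Subgroup A), x ∈ C → x = 1) : Odd (Nat.card C) := by
  have : Fact (Nat.Prime 2) := ⟨Nat.prime_two⟩
  by_contra hodd
  rw [Nat.not_odd_iff_even] at hodd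
  have h2 : 2 ∣ Nat.card C := hodd.two_dvd
  set M := normalizer (C : Set A) with hM
  have hSM : (S : Subgroup A) ≤ M := by
    intro s hs
    rw [hM, mem_normalizer_iff]
    intro x
    refine ⟨fun hx => hn s hs x hx, fun hx => ?_⟩
    have h1 := hn s⁻¹ (inv_mem hs) _ hx
    have e : s⁻¹ * (s * x * s⁻¹) * s⁻¹⁻¹ = x := by group
    rwa [e] at h1
  have hCM : C ≤ M := le_normalizer
  have : (C.subgroupOf M).Normal := by
    rw [hM]; exact normal_in_normalizer
  have h3 := SignalizersComponents.PCompCore.relIndex_dvd_index_of_normal_right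
    ((S : Subgroup A).subgroupOf M) (C.subgroupOf M)
  rw [relIndex_subgroupOf hCM] at h3
  have h4 : (S : Subgroup A).subgroupOf C = ⊥ := by
    rw [eq_bot_iff]
    intro x hx
    rw [mem_bot]
    exact Subtype.ext (h x (mem_subgroupOf.1 hx) x.2)
  have h5 : (S : Subgroup A).relIndex C = Nat.card C := by
    unfold Subgroup.relIndex
    rw [h4, index_bot]
  rw [h5] at h3
  have h6 : ((S : Subgroup A).subgroupOf M).index ∣ (S : Subgroup A).index := by
    change (S : Subgroup A).relIndex M ∣ _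
    exact relIndex_dvd_index_of_le hSM
  exact S.not_dvd_index (h2.trans (h3.trans h6))

end general

variable {A : Type*} [Group A] [Finite A] {S : Sylow 2 A} {t : Fin 4 → A} {Q K : Fin 4 → Subgroup A}
  {L : Subgroup A}

theorem NT_z (h : E6F S t Q K) {M : Subgroup A} (hz : NT (t 0 * t 1) M) {s : A} (hs : s ∈ (S : Subgroup A)) :
    NT (t 0 * t 1) (cj s M) := by
  have h1 := hz.cj s
  rwa [z_central h hs, mul_inv_cancel_right] at h1

/-- the elements which centralise all the conjugates of `L` under `S` -/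
def CC (S : Sylow 2 A) (L : Subgroup A) : Subgroup A := ⨅ s : (S : Subgroup A), centralizer (cj (s : A) L : Set A)

theorem mem_CC {x : A} : x ∈ CC S L ↔ ∀ s ∈ (S : Subgroup A), ∀ y ∈ cj s L, x * y = y * x := by
  unfold CC
  rw [mem_iInf]
  constructor
  · intro h s hs y hy
    exact (mem_centralizer_iff.1 (h ⟨s, hs⟩) y hy).symm
  · intro h s
    rw [mem_centralizer_iff]
    intro y hy
    exact (h s s.2 y hy).symm

theorem CC_norm : ∀ s ∈ (S : Subgroup A), ∀ x ∈ CC S L, s * x * s⁻¹ ∈ CC S L := by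
  intro s hs x hx
  rw [mem_CC] at hx ⊢
  intro s' hs' y hy
  have h1 : s⁻¹ * y * s ∈ cj (s⁻¹ * s') L := by
    rw [cj_mul, mem_cj]
    have e : s⁻¹⁻¹ * (s⁻¹ * y * s) * s⁻¹ = y := by group
    rw [e]; exact hy
  have h2 := hx _ (mul_mem (inv_mem hs) hs') _ h1
  calc s * x * s⁻¹ * y = s * (x * (s⁻¹ * y * s)) * s⁻¹ := by group
    _ = s * (s⁻¹ * y * s * x) * s⁻¹ := by rw [h2]
    _ = y * (s * x * s⁻¹) := by group

/-- `C_S` of the product of the conjugates of `L` is trivial -/
theorem inf_CC (h : E6F S t Q K) (hz : NT (t 0 * t 1) L) : ∀ x ∈ (S : Subgroup A), x ∈ CC S L → x = 1 := by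
  have h1 : (S : Subgroup A) ⊓ CC S L = ⊥ := by
    by_contra hne
    have h2 := z_mem_of_normal h (N := (S : Subgroup A) ⊓ CC S L) inf_le_left hne
      (fun s hs x hx => ⟨(S : Subgroup A).mul_mem ((S : Subgroup A).mul_mem hs hx.1)
        ((S : Subgroup A).inv_mem hs), CC_norm s hs x hx.2⟩)
    apply hz
    intro y hy
    have h3 := mem_CC.1 h2.2 1 (one_mem _) y
    rw [cj_one] at h3
    exact h3 hy
  intro x hx hx'
  have h2 : x ∈ (S : Subgroup A) ⊓ CC S L := ⟨hx, hx'⟩
  rw [h1, mem_bot] at h2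
  exact h2

/-- the centre of `L` has odd order -/
theorem odd_center (h : E6F S t Q K) (hL : IsComponent L) (hz : NT (t 0 * t 1) L) :
    Odd (Nat.card (Subgroup.center L)) := by
  have h1 : Odd (Nat.card (CC S L)) := odd_card S CC_norm (inf_CC h hz)
  have h2 : (center L).map L.subtype ≤ CC S L := by
    rintro _ ⟨x, hx, rfl⟩
    rw [mem_CC]
    intro s _ y hy
    by_cases hs : L = cj s L
    · rw [← hs] at hy
      have h3 := mem_center_iff.1 hx ⟨y, hy⟩
      exact (congrArg Subtype.val h3).symm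
    · exact comm_of_ne hL (isComponent_conj s hL) hs x.2 hy
  have h3 : Nat.card (center L) = Nat.card ((center L).map L.subtype) :=
    Nat.card_congr ((center L).equivMapOfInjective _ L.subtype_injective).toEquiv
  rw [h3]
  exact Odd.of_dvd_nat h1 (card_dvd_of_le h2)

/-- `Q i` centralises `S ∩ M` -/
theorem Q_comm (T : Tight A) (h : E6F S t Q K) {M : Subgroup A} (hM : IsComponent M)
    (hz : NT (t 0 * t 1) M) {i : Fin 4} (hi : t i ∉ M) :
    ∀ q ∈ Q i, ∀ x ∈ M, x ∈ (S : Subgroup A) → q * x = x * q := by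
  by_cases hc : ∀ x ∈ M, t i * x = x * t i
  · rcases T.le_or_comm (h.tq i) hM hc with h1 | h1
    · exfalso
      obtain ⟨y, hy, hy2⟩ := exists_inv hM
      have h2 := (h.tq i).uniq y (h1 hy) hy2
      exact hi (h2 ▸ hy)
    · intro q hq x hx _
      exact (h1 x hx q ((h.tq i).le hq)).symm
  · exact T.comm_sylow (h.tq i) hM (T.Q_norm (h.tq i) hM (odd_center h hM hz) hc) hi S (h.QS i)

/-- all `Q i` centralise `S ∩ M`: then `S ∩ M` has at least four elements with square 1, in `⟨t i⟩` -/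
theorem four_closure (h : E6F S t Q K) {M : Subgroup A} (hM : IsComponent M)
    (hc : ∀ i, ∀ q ∈ Q i, ∀ x ∈ M, x ∈ (S : Subgroup A) → q * x = x * q) :
    4 ≤ Nat.card {x : A // (x ∈ (S : Subgroup A) ∧ x ∈ M) ∧ x * x = 1} ∧
      ∀ x : A, (x ∈ (S : Subgroup A) ∧ x ∈ M) ∧ x * x = 1 → x ∈ closure (Set.range t) := by
  refine ⟨four_le hM S ?_, ?_⟩
  · intro x hx hx' y hy hy'
    exact h.ab x hx y hy (fun i q hq => (hc i q hq x hx' hx).symm) (fun i q hq => (hc i q hq y hy' hy).symm)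
  · rintro x ⟨⟨hx, hx'⟩, hx2⟩
    by_cases h1 : x = 1
    · rw [h1]; exact one_mem _
    · have h2 : orderOf x = 2 := orderOf_eq_prime (by rw [pow_two, hx2]) h1
      exact h.inv x hx h2 (fun i q hq => (hc i q hq x hx' hx).symm)

/-- not two components -/
theorem not_two (h : E6F S t Q K) {M N : Subgroup A} (hM : IsComponent M) (hN : IsComponent N) (hne : M ≠ N)
    (hz : NT (t 0 * t 1) M)
    (hcM : ∀ i, ∀ q ∈ Q i, ∀ x ∈ M, x ∈ (S : Subgroup A) → q * x = x * q)
    (hcN : ∀ i, ∀ q ∈ Q i, ∀ x ∈ N, x ∈ (S : Subgroup A) → q * x = x * q) : False := by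
  obtain ⟨m4, hm⟩ := four_closure h hM hcM
  obtain ⟨n4, hn⟩ := four_closure h hN hcN
  have hodd := odd_center h hM hz
  have key : ∀ x : A, x ∈ (S : Subgroup A) → x ∈ M → x ∈ N → x = 1 := by
    intro x hxS hxM hxN
    have h1 : (⟨x, hxM⟩ : M) ∈ center M := by
      rw [mem_center_iff]
      intro y
      exact Subtype.ext (comm_of_ne hM hN hne y.2 hxN)
    obtain ⟨k, hk⟩ := S.isPGroup' ⟨x, hxS⟩
    have h2 : x ^ 2 ^ k = 1 := congrArg Subtype.val hk
    have h3 : orderOf x ∣ 2 ^ k := orderOf_dvd_of_pow_eq_one h2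
    have h4 : orderOf (⟨⟨x, hxM⟩, h1⟩ : center M) ∣ Nat.card (center M) := orderOf_dvd_natCard _
    rw [orderOf_mk, orderOf_mk] at h4
    have h5 : Nat.Coprime (2 ^ k) (Nat.card (center M)) := Nat.Coprime.pow_left _ (Nat.coprime_two_left.2 hodd)
    exact orderOf_eq_one_iff.1 (Nat.Coprime.eq_one_of_dvd (h5.coprime_dvd_left h3) h4)
  let f : {x : A // (x ∈ (S : Subgroup A) ∧ x ∈ M) ∧ x * x = 1} ×
      {x : A // (x ∈ (S : Subgroup A) ∧ x ∈ N) ∧ x * x = 1} → ↥(closure (Set.range t)) :=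
    fun p => ⟨p.1.1 * p.2.1, mul_mem (hm _ p.1.2) (hn _ p.2.2)⟩
  have hf : Function.Injective f := by
    rintro ⟨⟨x, hx⟩, ⟨y, hy⟩⟩ ⟨⟨x', hx'⟩, ⟨y', hy'⟩⟩ hxy
    have h1 : x * y = x' * y' := congrArg Subtype.val hxy
    have h2 : x'⁻¹ * x = y' * y⁻¹ := by
      rw [eq_mul_inv_iff_mul_eq, mul_assoc, h1, inv_mul_cancel_left]
    have h3 : x'⁻¹ * x = 1 := by
      refine key _ (mul_mem (inv_mem hx'.1.1) hx.1.1) (mul_mem (inv_mem hx'.1.2) hx.1.2) ?_
      rw [h2]
      exact mul_mem hy'.1.2 (inv_mem hy.1.2)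
    have h4 : x = x' := (inv_mul_eq_one.1 h3).symm
    subst h4
    have h5 : y = y' := mul_left_cancel h1
    subst h5
    rfl
  have h1 := Nat.card_le_card_of_injective f hf
  rw [Nat.card_prod] at h1
  have h2 := card_closure_le h
  have h3 : 4 * 4 ≤ 8 := (Nat.mul_le_mul m4 n4).trans (h1.trans h2)
  omega

/-- there is only one conjugate of `L` under `S` -/
theorem cj_eq (T : Tight A) (h : E6F S t Q K) (hL : IsComponent L) (hz : NT (t 0 * t 1) L) {s0 : A}
    (hs0 : s0 ∈ (S : Subgroup A)) : cj s0 L = L := by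
  by_contra hne
  by_cases hA : ∃ i, ∃ s1 ∈ (S : Subgroup A), ∃ s2 ∈ (S : Subgroup A), cj s1 L ≠ cj s2 L ∧
      NT (t i) (cj s1 L) ∧ NT (t i) (cj s2 L)
  · obtain ⟨i, s1, hs1, s2, hs2, h12, hn1, hn2⟩ := hA
    have hmem : ∀ j, ∀ s ∈ (S : Subgroup A), t j ∉ cj s L := by
      intro j s hs
      obtain ⟨u, hu, hut⟩ := h.trans i j
      have e1 := hn1.cj u
      have e2 := hn2.cj u
      rw [hut, ← cj_mul] at e1 e2
      by_cases h3 : cj (u * s1) L = cj s L
      · refine e2.not_mem (isComponent_conj _ hL) (isComponent_conj _ hL) ?_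
        intro h4
        apply h12
        rw [← h4, cj_mul, cj_mul] at h3
        exact Subgroup.map_injective (MulAut.conj u).injective h3
      · exact e1.not_mem (isComponent_conj _ hL) (isComponent_conj _ hL) h3
    have hcL : ∀ i, ∀ q ∈ Q i, ∀ x ∈ L, x ∈ (S : Subgroup A) → q * x = x * q := by
      intro i
      refine Q_comm T h hL hz ?_
      have := hmem i 1 (one_mem _)
      rwa [cj_one] at this
    have hcs : ∀ i, ∀ q ∈ Q i, ∀ x ∈ cj s0 L, x ∈ (S : Subgroup A) → q * x = x * q := fun i =>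
      Q_comm T h (isComponent_conj s0 hL) (NT_z h hz hs0) (hmem i s0 hs0)
    exact not_two h hL (isComponent_conj s0 hL) (Ne.symm hne) hz hcL hcs
  · push Not at hA
    -- each `t i` is non-trivial on at most one of the conjugates
    have huniq : ∀ i, ∀ s1 ∈ (S : Subgroup A), ∀ s2 ∈ (S : Subgroup A), NT (t i) (cj s1 L) → NT (t i) (cj s2 L) →
        cj s1 L = cj s2 L := by
      intro i s1 hs1 s2 hs2 h1 h2
      by_contra h3
      exact hA i s1 hs1 s2 hs2 h3 h1 h2
    have h01 : ∀ s ∈ (S : Subgroup A), NT (t 0) (cj s L) ∨ NT (t 1) (cj s L) := by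
      intro s hs
      by_contra hcon
      push Not at hcon
      unfold NT at hcon
      push Not at hcon
      apply NT_z h hz hs
      intro y hy
      rw [mul_assoc, hcon.2 y hy, ← mul_assoc, hcon.1 y hy, mul_assoc]
    have h23 : ∀ s ∈ (S : Subgroup A), NT (t 2) (cj s L) ∨ NT (t 3) (cj s L) := by
      intro s hs
      by_contra hcon
      push Not at hcon
      unfold NT at hcon
      push Not at hcon
      apply NT_z h hz hs
      intro y hy
      rw [← t23 h, mul_assoc, hcon.2 y hy, ← mul_assoc, hcon.1 y hy, mul_assoc]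
    -- two different conjugates, `t 0` non-trivial on the first one
    obtain ⟨a, ha, b, hb, hab, ha0, hb0⟩ : ∃ a ∈ (S : Subgroup A), ∃ b ∈ (S : Subgroup A), cj a L ≠ cj b L ∧
        NT (t 0) (cj a L) ∧ ¬ NT (t 0) (cj b L) := by
      have hne1 : cj s0 L ≠ cj 1 L := by rwa [cj_one]
      by_cases h1 : NT (t 0) (cj s0 L)
      · exact ⟨s0, hs0, 1, one_mem _, hne1, h1, fun h2 => hne1 (huniq 0 _ hs0 _ (one_mem _) h1 h2)⟩
      · by_cases h2 : NT (t 0) (cj 1 L)
        · exact ⟨1, one_mem _, s0, hs0, hne1.symm, h2, h1⟩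
        · exfalso
          have h3 := (h01 s0 hs0).resolve_left h1
          have h4 := (h01 1 (one_mem _)).resolve_left h2
          exact hne1 (huniq 1 _ hs0 _ (one_mem _) h3 h4)
    obtain ⟨w, hw, hw0, hw1, hw2, hw3⟩ := h.swap
    -- `w` fixes the first one
    have hwa : cj (w * a) L = cj a L := by
      refine huniq 0 _ (mul_mem hw ha) _ ha ?_ ha0
      have h1 := ha0.cj w
      rwa [hw0, ← cj_mul] at h1
    have hcase : ∀ i j, w * t i * w⁻¹ = t j → NT (t i) (cj a L) → NT (t j) (cj b L) → False := by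
      intro i j hij h1 h2
      have h3 := h1.cj w
      rw [hij, ← cj_mul] at h3
      have h4 := huniq j _ (mul_mem hw ha) _ hb h3 h2
      rw [hwa] at h4
      exact hab h4
    rcases h23 a ha with h2a | h3a
    · rcases h23 b hb with h2b | h3b
      · exact hab (huniq 2 _ ha _ hb h2a h2b)
      · exact hcase 2 3 hw2 h2a h3b
    · rcases h23 b hb with h2b | h3b
      · exact hcase 3 2 hw3 h3a h2b
      · exact hab (huniq 3 _ ha _ hb h3a h3b)

/-- **E2** (from T2, T3, T4) -/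
theorem comp_of_tight (T : Tight A) (h : E6F S t Q K) {L : Subgroup A} (hL : Cfsg.IsComponent L)
    (hz : ¬ ∀ x ∈ L, t 0 * t 1 * x = x * (t 0 * t 1)) :
    (∀ s ∈ (S : Subgroup A), ∀ x ∈ L, s * x * s⁻¹ ∈ L) ∧
      (∀ s ∈ (S : Subgroup A), (∀ x ∈ L, s * x = x * s) → s = 1) := by
  have h1 : ∀ s ∈ (S : Subgroup A), cj s L = L := fun s hs => cj_eq T h hL hz hs
  refine ⟨?_, ?_⟩
  · intro s hs x hx
    have h2 := conj_mem_cj (g := s) hx
    rwa [h1 s hs] at h2
  · intro s hs hc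
    refine inf_CC h hz s hs ?_
    rw [mem_CC]
    intro s' hs' y hy
    rw [h1 s' hs'] at hy
    exact hc y hy

end Cfsg.Agent.H86.Hall
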