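import Cfsg.Agent.H86.Hall.Prep

/-!
# The frame of `E₆^ε(q)`: the action of `S` and the involution `t 0 * t 1` (helper86)
-/

set_option autoImplicit false

namespace Cfsg.Agent.H86.Hall

open Subgroup Cfsg Cfsg.Agent.Cit Cfsg.Agent.H125.Hall

section perm4

set_option maxRecDepth 100000 in
private theorem perm4 : ∀ σ : Equiv.Perm (Fin 4),
    ((σ * Equiv.swap 2 3 * σ⁻¹ * Equiv.swap 2 3) ^ 3 = 1 → σ * Equiv.swap 2 3 * σ⁻¹ * Equiv.swap 2 3 = 1) →
      (σ 0 = 0 ∧ σ 1 = 1) ∨ (σ 0 = 1 ∧ σ 1 = 0) ∨ (σ 0 = 2 ∧ σ 1 = 3) ∨ (σ 0 = 3 ∧ σ 1 = 2) := by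
  decide

end perm4

variable {A : Type*} [Group A] {S : Sylow 2 A} {t : Fin 4 → A} {Q K : Fin 4 → Subgroup A}

theorem tmem (h : E6F S t Q K) (i : Fin 4) : t i ∈ (S : Subgroup A) := h.QS i (h.tq i).mem

theorem tK (h : E6F S t Q K) (i : Fin 4) : t i ∈ K i := (h.tq i).le (h.tq i).mem

theorem tt (h : E6F S t Q K) (i : Fin 4) : t i * t i = 1 := by
  rw [← pow_two, ← (h.tq i).ord, pow_orderOf_eq_one]

theorem tinv (h : E6F S t Q K) (i : Fin 4) : (t i)⁻¹ = t i := inv_eq_of_mul_eq_one_right (tt h i)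

theorem tcomm (h : E6F S t Q K) (i j : Fin 4) : t i * t j = t j * t i := by
  by_cases hij : i = j
  · rw [hij]
  · exact h.comm i j hij _ (tK h i) _ (tK h j)

theorem t23 (h : E6F S t Q K) : t 2 * t 3 = t 0 * t 1 := by
  have h1 := h.prod
  have h2 : t 0 * t 1 * (t 2 * t 3) = 1 := by rw [← h1]; group
  rw [mul_eq_one_iff_inv_eq, mul_inv_rev, tinv h, tinv h] at h2
  rw [← h2, tcomm h]

theorem t32 (h : E6F S t Q K) : t 3 * t 2 = t 0 * t 1 := by rw [tcomm h, t23 h]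

theorem t10 (h : E6F S t Q K) : t 1 * t 0 = t 0 * t 1 := tcomm h _ _

theorem t012 (h : E6F S t Q K) : t 0 * t 1 * t 2 = t 3 := by
  have h1 := h.prod
  rw [mul_eq_one_iff_eq_inv, tinv h] at h1
  exact h1

/-- the permutation of the frame -/
noncomputable def sg (h : E6F S t Q K) (s : (S : Subgroup A)) (i : Fin 4) : Fin 4 := (h.perm s s.2 i).choose

theorem sg_spec (h : E6F S t Q K) (s : (S : Subgroup A)) (i : Fin 4) :
    (s : A) * t i * (s : A)⁻¹ = t (sg h s i) := (h.perm s s.2 i).choose_spec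

/-- the action on the frame -/
@[instance_reducible] noncomputable def act (h : E6F S t Q K) : MulAction (S : Subgroup A) (Fin 4) where
  smul s i := sg h s i
  one_smul i := h.inj (by
    show t (sg h 1 i) = t i
    rw [← sg_spec h]; simp)
  mul_smul s s' i := h.inj (by
    show t (sg h (s * s') i) = t (sg h s (sg h s' i))
    rw [← sg_spec h, ← sg_spec h, ← sg_spec h, Subgroup.coe_mul]; group)

/-- the permutation representation -/
noncomputable def ph (h : E6F S t Q K) : (S : Subgroup A) →* Equiv.Perm (Fin 4) :=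
  @MulAction.toPermHom _ _ _ (act h)

theorem ph_spec (h : E6F S t Q K) (s : (S : Subgroup A)) (i : Fin 4) :
    (s : A) * t i * (s : A)⁻¹ = t (ph h s i) := sg_spec h s i

/-- `z = t 0 * t 1` is central in `S` -/
theorem z_central (h : E6F S t Q K) {s : A} (hs : s ∈ (S : Subgroup A)) :
    s * (t 0 * t 1) = t 0 * t 1 * s := by
  obtain ⟨w, hw, hw0, hw1, hw2, hw3⟩ := h.swap
  have e1 : ph h ⟨w, hw⟩ = Equiv.swap 2 3 := by
    apply Equiv.ext
    intro i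
    apply h.inj
    rw [← ph_spec h]
    fin_cases i
    · exact hw0
    · exact hw1
    · exact hw2
    · exact hw3
  set σ := ph h ⟨s, hs⟩ with hσ
  have e2 : σ * Equiv.swap 2 3 * σ⁻¹ * Equiv.swap 2 3 =
      ph h (⟨s, hs⟩ * ⟨w, hw⟩ * ⟨s, hs⟩⁻¹ * ⟨w, hw⟩) := by
    rw [map_mul, map_mul, map_mul, map_inv, e1]
  have e3 := perm4 σ (by
    intro h3
    rw [e2] at h3 ⊢
    set u := ph h (⟨s, hs⟩ * ⟨w, hw⟩ * ⟨s, hs⟩⁻¹ * ⟨w, hw⟩) with hu
    obtain ⟨k, hk⟩ := S.isPGroup' (⟨s, hs⟩ * ⟨w, hw⟩ * ⟨s, hs⟩⁻¹ * ⟨w, hw⟩)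
    have h4 : u ^ 2 ^ k = 1 := by rw [hu, ← map_pow, hk, map_one]
    have h5 : orderOf u ∣ 3 := orderOf_dvd_of_pow_eq_one h3
    have h6 : orderOf u ∣ 2 ^ k := orderOf_dvd_of_pow_eq_one h4
    have h7 : Nat.Coprime 3 (2 ^ k) := Nat.Coprime.pow_right _ (by norm_num)
    exact orderOf_eq_one_iff.1 (Nat.Coprime.eq_one_of_dvd (h7.coprime_dvd_left h5) h6))
  have e4 : s * (t 0 * t 1) * s⁻¹ = t (σ 0) * t (σ 1) := by
    rw [← ph_spec h ⟨s, hs⟩, ← ph_spec h ⟨s, hs⟩]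
    group
  have e5 : t (σ 0) * t (σ 1) = t 0 * t 1 := by
    rcases e3 with ⟨h0, h1⟩ | ⟨h0, h1⟩ | ⟨h0, h1⟩ | ⟨h0, h1⟩ <;> rw [h0, h1]
    · exact t10 h
    · exact t23 h
    · exact t32 h
  rw [e5, mul_inv_eq_iff_eq_mul] at e4
  exact e4

theorem z_ne (h : E6F S t Q K) : t 0 * t 1 ≠ 1 := by
  intro h1
  rw [mul_eq_one_iff_eq_inv, tinv h] at h1
  exact absurd (h.inj h1) (by decide)

theorem z_mem (h : E6F S t Q K) : t 0 * t 1 ∈ (S : Subgroup A) := mul_mem (tmem h 0) (tmem h 1)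

theorem tpow (h : E6F S t Q K) (i : Fin 4) (n : ℕ) : ∃ a : Fin 2, t i ^ n = t i ^ (a : ℕ) := by
  refine ⟨⟨n % 2, Nat.mod_lt _ (by norm_num)⟩, ?_⟩
  have h1 := pow_mod_orderOf (t i) n
  rw [(h.tq i).ord] at h1
  exact h1.symm

theorem closure_form (h : E6F S t Q K) {y : A} (hy : y ∈ closure (Set.range t)) :
    ∃ a b c : Fin 2, y = t 0 ^ (a : ℕ) * t 1 ^ (b : ℕ) * t 2 ^ (c : ℕ) := by
  have key : ∃ a b c : ℕ, y = t 0 ^ a * t 1 ^ b * t 2 ^ c := by
    induction hy using Subgroup.closure_induction with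
    | mem x hx =>
      obtain ⟨i, rfl⟩ := hx
      fin_cases i
      · exact ⟨1, 0, 0, by simp⟩
      · exact ⟨0, 1, 0, by simp⟩
      · exact ⟨0, 0, 1, by simp⟩
      · exact ⟨1, 1, 1, by simp [t012 h]⟩
    | one => exact ⟨0, 0, 0, by simp⟩
    | mul x y _ _ hx hy =>
      obtain ⟨a, b, c, rfl⟩ := hx
      obtain ⟨a', b', c', rfl⟩ := hy
      refine ⟨a + a', b + b', c + c', ?_⟩
      have c01 : Commute (t 1 ^ b) (t 0 ^ a') := Commute.pow_pow (tcomm h 1 0) _ _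
      have c02 : Commute (t 2 ^ c) (t 0 ^ a') := Commute.pow_pow (tcomm h 2 0) _ _
      have c12 : Commute (t 2 ^ c) (t 1 ^ b') := Commute.pow_pow (tcomm h 2 1) _ _
      calc t 0 ^ a * t 1 ^ b * t 2 ^ c * (t 0 ^ a' * t 1 ^ b' * t 2 ^ c')
          = t 0 ^ a * t 1 ^ b * (t 2 ^ c * t 0 ^ a') * t 1 ^ b' * t 2 ^ c' := by group
        _ = t 0 ^ a * (t 1 ^ b * t 0 ^ a') * (t 2 ^ c * t 1 ^ b') * t 2 ^ c' := by rw [c02.eq]; group
        _ = t 0 ^ (a + a') * t 1 ^ (b + b') * t 2 ^ (c + c') := by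
          rw [c01.eq, c12.eq, pow_add, pow_add, pow_add]; group
    | inv x _ hx =>
      obtain ⟨a, b, c, rfl⟩ := hx
      refine ⟨a, b, c, ?_⟩
      have c01 : Commute (t 1 ^ b) (t 0 ^ a) := Commute.pow_pow (tcomm h 1 0) _ _
      have c02 : Commute (t 2 ^ c) (t 0 ^ a) := Commute.pow_pow (tcomm h 2 0) _ _
      have c12 : Commute (t 2 ^ c) (t 1 ^ b) := Commute.pow_pow (tcomm h 2 1) _ _
      rw [mul_inv_rev, mul_inv_rev, ← inv_pow, ← inv_pow, ← inv_pow, tinv h, tinv h, tinv h]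
      calc t 2 ^ c * (t 1 ^ b * t 0 ^ a) = t 2 ^ c * (t 0 ^ a * t 1 ^ b) := by rw [c01.eq]
        _ = (t 2 ^ c * t 0 ^ a) * t 1 ^ b := by group
        _ = t 0 ^ a * (t 2 ^ c * t 1 ^ b) := by rw [c02.eq]; group
        _ = t 0 ^ a * t 1 ^ b * t 2 ^ c := by rw [c12.eq]; group
  obtain ⟨a, b, c, rfl⟩ := key
  obtain ⟨a', ha⟩ := tpow h 0 a
  obtain ⟨b', hb⟩ := tpow h 1 b
  obtain ⟨c', hc⟩ := tpow h 2 c
  exact ⟨a', b', c', by rw [ha, hb, hc]⟩

theorem card_closure_le (h : E6F S t Q K) : Nat.card ↥(closure (Set.range t)) ≤ 8 := by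
  have h1 : Function.Surjective (fun p : Fin 2 × Fin 2 × Fin 2 =>
      (⟨t 0 ^ (p.1 : ℕ) * t 1 ^ (p.2.1 : ℕ) * t 2 ^ (p.2.2 : ℕ),
        mul_mem (mul_mem (pow_mem (Subgroup.subset_closure (Set.mem_range_self (f := t) 0)) _) (pow_mem (Subgroup.subset_closure (Set.mem_range_self (f := t) 1)) _))
          (pow_mem (Subgroup.subset_closure (Set.mem_range_self (f := t) 2)) _)⟩ : ↥(closure (Set.range t)))) := by
    rintro ⟨y, hy⟩
    obtain ⟨a, b, c, rfl⟩ := closure_form h hy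
    exact ⟨(a, b, c), rfl⟩
  refine (Nat.card_le_card_of_surjective _ h1).trans ?_
  simp

/-- the only central involution of `S` in `⟨t i⟩` -/
theorem central_eq (h : E6F S t Q K) {y : A} (hy : y ∈ closure (Set.range t)) (hy1 : y ≠ 1)
    (hc : ∀ s ∈ (S : Subgroup A), s * y = y * s) : y = t 0 * t 1 := by
  have hc' : ∀ s ∈ (S : Subgroup A), s * y * s⁻¹ = y := fun s hs => by rw [hc s hs]; group
  have nt : ∀ i, y ≠ t i := by
    intro i hi
    have h1 : ∀ j, t i = t j := by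
      intro j
      obtain ⟨s, hs, h2⟩ := h.trans i j
      rw [← hi, hc' s hs, hi] at h2
      exact h2
    have h2 : (0 : Fin 4) = 1 := h.inj ((h1 0).symm.trans (h1 1))
    exact absurd h2 (by decide)
  obtain ⟨w, hw, hw0, hw1, hw2, hw3⟩ := h.swap
  obtain ⟨a, b, c, hf⟩ := closure_form h hy
  fin_cases a <;> fin_cases b <;> fin_cases c <;>
    simp at hf
  · exact absurd hf hy1
  · exact absurd hf (nt 2)
  · exact absurd hf (nt 1)
  · exfalso
    have h1 := hc' w hw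
    rw [hf] at h1
    have h2 : w * (t 1 * t 2) * w⁻¹ = t 1 * t 3 := by rw [← hw2]; nth_rewrite 2 [← hw1]; group
    rw [h2] at h1
    exact absurd (h.inj (mul_left_cancel h1)) (by decide)
  · exact absurd hf (nt 0)
  · exfalso
    have h1 := hc' w hw
    rw [hf] at h1
    have h2 : w * (t 0 * t 2) * w⁻¹ = t 0 * t 3 := by rw [← hw2]; nth_rewrite 2 [← hw0]; group
    rw [h2] at h1
    exact absurd (h.inj (mul_left_cancel h1)) (by decide)
  · exact hf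
  · rw [t012 h] at hf
    exact absurd hf (nt 3)

/-- every nontrivial normal subgroup of `S` contains `z = t 0 * t 1` -/
theorem z_mem_of_normal [Finite A] (h : E6F S t Q K) {N : Subgroup A} (hN : N ≤ (S : Subgroup A)) (hN1 : N ≠ ⊥)
    (hn : ∀ s ∈ (S : Subgroup A), ∀ x ∈ N, s * x * s⁻¹ ∈ N) : t 0 * t 1 ∈ N := by
  have : Fact (Nat.Prime 2) := ⟨Nat.prime_two⟩
  obtain ⟨w, hwN, hw1, hw⟩ := Characters.CNBasic.exists_mem_center_of_normal (S : Subgroup A) S.isPGroup' N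
    (S.isPGroup'.to_le hN) hN1 hn
  obtain ⟨k, hk⟩ := IsPGroup.iff_orderOf.1 S.isPGroup' ⟨w, hN hwN⟩
  rw [orderOf_mk] at hk
  have hk0 : k ≠ 0 := by
    rintro rfl
    rw [pow_zero, orderOf_eq_one_iff] at hk
    exact hw1 hk
  obtain ⟨m, rfl⟩ := Nat.exists_eq_succ_of_ne_zero hk0
  have h2 : orderOf (w ^ 2 ^ m) = 2 := by
    rw [orderOf_pow' _ (by positivity), hk]
    have : Nat.gcd (2 ^ (m + 1)) (2 ^ m) = 2 ^ m := by
      rw [Nat.gcd_comm]
      exact Nat.gcd_eq_left (pow_dvd_pow 2 (Nat.le_succ m))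
    rw [Nat.succ_eq_add_one, this, pow_succ, Nat.mul_div_cancel_left _ (by positivity)]
  have h3 : ∀ s ∈ (S : Subgroup A), s * w ^ 2 ^ m = w ^ 2 ^ m * s := fun s hs => (Commute.pow_right (hw s hs) _).eq
  have h4 : w ^ 2 ^ m ∈ closure (Set.range t) :=
    h.inv _ (pow_mem (hN hwN) _) h2 (fun i q hq => (h3 q (h.QS i hq)).symm)
  have h5 : w ^ 2 ^ m ≠ 1 := by
    intro h6
    rw [h6, orderOf_one] at h2
    omega
  rw [← central_eq h h4 h5 h3]
  exact pow_mem hwN _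

end Cfsg.Agent.H86.Hall
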