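import Cfsg.Agent.H125.Hall.Defs
import Cfsg.Agent.Characters.CNBasic
import Cfsg.Agent.SignalizersComponents.PCompCore
import Cfsg.Agent.SignalizersComponents.Components
import Cfsg.Agent.SignalizersComponents.QuasisimpleQuotient
import Cfsg.Agent.S0205

/-!
# Components and Sylow 2-subgroups: tools for `E6F.comp` (helper86)
-/

set_option autoImplicit false

namespace Cfsg.Agent.H86.Hall

open Subgroup Cfsg Cfsg.Agent.Cit Cfsg.Agent.H125.Hall
open Cfsg.Agent.SignalizersComponents.Components

/-- a finite abelian group with few elements of prime order is cyclic -/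
theorem isCyclic_of_omega {A : Type*} [CommGroup A] [Finite A]
    (h : ∀ t : ℕ, t.Prime → Nat.card {a : A // a ^ t = 1} ≤ t) : IsCyclic A := by
  classical
  have : Fintype A := Fintype.ofFinite A
  have key : ∀ n : ℕ, 0 < n → Nat.card {a : A // a ^ n = 1} ≤ n := by
    intro n
    induction n using Nat.strong_induction_on with
    | _ n ih =>
      intro hn
      by_cases hn1 : n = 1
      · subst hn1
        have : Subsingleton {a : A // a ^ 1 = 1} := ⟨fun a b => Subtype.ext (by
          have ha := a.2
          have hb := b.2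
          rw [pow_one] at ha hb
          rw [ha, hb])⟩
        exact Finite.card_le_one_iff_subsingleton.2 this
      obtain ⟨t, ht, m, rfl⟩ := Nat.exists_prime_and_dvd hn1
      have hm : 0 < m := Nat.pos_of_mul_pos_left hn
      have hmlt : m < t * m := by
        have := ht.two_le
        nlinarith
      have ihm := ih m hmlt hm
      have hct := h t ht
      let f : {a : A // a ^ (t * m) = 1} → {a : A // a ^ m = 1} := fun a => ⟨a.1 ^ t, by
        rw [← pow_mul]; exact a.2⟩
      have hcard : Nat.card {a : A // a ^ (t * m) = 1} ≤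
          Nat.card {a : A // a ^ m = 1} * Nat.card {a : A // a ^ t = 1} := by
        have hne : Nonempty {a : A // a ^ (t * m) = 1} := ⟨⟨1, one_pow _⟩⟩
        let g : {a : A // a ^ (t * m) = 1} → {a : A // a ^ m = 1} × {a : A // a ^ t = 1} :=
          fun a => ⟨f a, ⟨a.1 * ((Function.invFun f (f a)).1)⁻¹, by
            have h1 : f (Function.invFun f (f a)) = f a := Function.invFun_eq ⟨a, rfl⟩
            have h2 : (Function.invFun f (f a)).1 ^ t = a.1 ^ t := congrArg Subtype.val h1
            rw [mul_pow, inv_pow, h2, mul_inv_cancel]⟩⟩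
        rw [← Nat.card_prod]
        apply Nat.card_le_card_of_injective g
        intro a b hab
        have h1 : f a = f b := congrArg Prod.fst hab
        have h2 := congrArg (fun t => (t.2 : A)) hab
        simp only [g] at h2
        rw [h1] at h2
        exact Subtype.ext (mul_right_cancel h2)
      calc Nat.card {a : A // a ^ (t * m) = 1} ≤
          Nat.card {a : A // a ^ m = 1} * Nat.card {a : A // a ^ t = 1} := hcard
        _ ≤ m * t := Nat.mul_le_mul ihm hct
        _ = t * m := mul_comm _ _
  apply isCyclic_of_card_pow_eq_one_le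
  intro n hn
  have h1 := key n hn
  rw [Nat.card_eq_fintype_card, Fintype.card_subtype] at h1
  exact h1

variable {A : Type*} [Group A] [Finite A] {L : Subgroup A}

/-- components have even order -/
theorem two_dvd (hL : IsComponent L) : 2 ∣ Nat.card L := by
  by_contra h2
  exact quasisimple_not_isSolvable hL.2 (Cfsg.Agent.S0205.result (Nat.odd_iff.2 (by omega)))

/-- an involution of a component -/
theorem exists_inv (hL : IsComponent L) : ∃ x ∈ L, orderOf x = 2 := by
  have : Fact (Nat.Prime 2) := ⟨Nat.prime_two⟩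
  obtain ⟨x, hx⟩ := exists_prime_orderOf_dvd_card' 2 (two_dvd hL)
  exact ⟨x, x.2, by rwa [orderOf_coe]⟩

/-- `S ∩ L` is a Sylow 2-subgroup of the component `L` -/
theorem exists_syl (hL : IsComponent L) (S : Sylow 2 A) :
    ∃ P : Sylow 2 L, (P : Subgroup L) = (S : Subgroup A).subgroupOf L := by
  have : Fact (Nat.Prime 2) := ⟨Nat.prime_two⟩
  have h1 : IsPGroup 2 ((S : Subgroup A).subgroupOf L) := S.isPGroup'.comap_subtype
  have h2 : ¬ 2 ∣ ((S : Subgroup A).subgroupOf L).index := by
    intro h2
    have h3 : (S : Subgroup A).relIndex L ∣ (S : Subgroup A).index :=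
      SignalizersComponents.PCompCore.relIndex_dvd_index_of_subnormal _ hL.1
    exact S.not_dvd_index (h2.trans h3)
  exact ⟨h1.toSylow h2, rfl⟩

/-- a Sylow 2-subgroup of a component is not cyclic (Burnside) -/
theorem not_cyclic (hL : IsComponent L) (P : Sylow 2 L) : ¬ IsCyclic (P : Subgroup L) := by
  intro hP
  have : Fact (Nat.Prime 2) := ⟨Nat.prime_two⟩
  have hmf : (Nat.card L).minFac = 2 := (Nat.minFac_eq_two_iff _).2 (two_dvd hL)
  have hcompl := IsCyclic.isComplement' (P := P) hmf hP
  set K := (MonoidHom.transferSylow P (hP.normalizer_le_centralizer hmf)).ker with hK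
  have hc : _root_.commutator L ≤ K := by
    rw [hK]
    rw [_root_.commutator_def, commutator_le]
    intro a _ b _
    rw [MonoidHom.mem_ker, map_commutatorElement, commutatorElement_eq_one_iff_mul_comm]
    exact (IsCyclic.isMulCommutative (α := P)).is_comm.comm _ _
  rw [hL.2.1.commutator_eq_top, top_le_iff] at hc
  have h5 : Nat.card K = (P : Subgroup L).index := hcompl.index_eq_card.symm
  rw [hc, card_top] at h5
  apply P.not_dvd_index
  rw [← h5]
  exact two_dvd hL

/-- a component with an abelian Sylow 2-subgroup has 2-rank at least 2 -/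
theorem four_le (hL : IsComponent L) (S : Sylow 2 A)
    (hab : ∀ x ∈ (S : Subgroup A), x ∈ L → ∀ y ∈ (S : Subgroup A), y ∈ L → x * y = y * x) :
    4 ≤ Nat.card {x : A // (x ∈ (S : Subgroup A) ∧ x ∈ L) ∧ x * x = 1} := by
  have : Fact (Nat.Prime 2) := ⟨Nat.prime_two⟩
  by_contra hlt
  obtain ⟨P, hP⟩ := exists_syl hL S
  apply not_cyclic hL P
  let V : Subgroup A :=
    { carrier := {x | (x ∈ (S : Subgroup A) ∧ x ∈ L) ∧ x * x = 1}
      one_mem' := ⟨⟨one_mem _, one_mem _⟩, mul_one _⟩
      mul_mem' := by
        rintro x y ⟨⟨hx, hx'⟩, hx2⟩ ⟨⟨hy, hy'⟩, hy2⟩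
        refine ⟨⟨mul_mem hx hy, mul_mem hx' hy'⟩, ?_⟩
        have h1 := hab x hx hx' y hy hy'
        calc x * y * (x * y) = x * (y * x) * y := by group
          _ = x * (x * y) * y := by rw [h1]
          _ = x * x * (y * y) := by group
          _ = 1 := by rw [hx2, hy2, mul_one]
      inv_mem' := by
        rintro x ⟨⟨hx, hx'⟩, hx2⟩
        refine ⟨⟨inv_mem hx, inv_mem hx'⟩, ?_⟩
        rw [← mul_inv_rev, hx2, inv_one] }
  have hVS : V ≤ (S : Subgroup A) := fun x hx => hx.1.1
  have hVp : IsPGroup 2 V := S.isPGroup'.to_le hVS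
  obtain ⟨k, hk⟩ := IsPGroup.iff_card.1 hVp
  have hV2 : Nat.card V ≤ 2 := by
    have h1 : Nat.card V < 4 := by
      rw [not_le] at hlt
      exact hlt
    rw [hk] at h1 ⊢
    have h2 : k < 2 := by
      by_contra h
      have h3 : 2 ^ 2 ≤ 2 ^ k := Nat.pow_le_pow_right (by norm_num) (by omega)
      omega
    calc 2 ^ k ≤ 2 ^ 1 := Nat.pow_le_pow_right (by norm_num) (by omega)
      _ = 2 := by norm_num
  have hPS : ∀ x : (P : Subgroup L), ((x : L) : A) ∈ (S : Subgroup A) := by
    intro x
    have h1 : (x : L) ∈ (S : Subgroup A).subgroupOf L := hP.le x.2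
    exact mem_subgroupOf.1 h1
  letI : CommGroup (P : Subgroup L) :=
    { (inferInstance : Group (P : Subgroup L)) with
      mul_comm := fun x y => Subtype.ext (Subtype.ext (hab _ (hPS x) (x : L).2 _ (hPS y) (y : L).2)) }
  refine isCyclic_of_omega (A := (P : Subgroup L)) ?_
  intro r hr
  by_cases hr2 : r = 2
  · subst hr2
    refine le_trans ?_ hV2
    refine Nat.card_le_card_of_injective
      (fun x : {a : (P : Subgroup L) // a ^ 2 = 1} => (⟨((x.1 : L) : A), ⟨hPS x.1, (x.1 : L).2⟩, ?_⟩ : V)) ?_
    · have h1 := congrArg (fun y : (P : Subgroup L) => ((y : L) : A)) x.2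
      simpa [pow_two] using h1
    · intro x y hxy
      have h1 := congrArg (fun v : V => (v : A)) hxy
      exact Subtype.ext (Subtype.ext (Subtype.ext h1))
  · have : Subsingleton {a : (P : Subgroup L) // a ^ r = 1} := by
      constructor
      have h1 : ∀ a : (P : Subgroup L), a ^ r = 1 → a = 1 := by
        intro a ha
        have h2 : orderOf a ∣ r := orderOf_dvd_of_pow_eq_one ha
        obtain ⟨j, hj⟩ := IsPGroup.iff_orderOf.1 P.isPGroup' a
        have h3 : Nat.Coprime (2 ^ j) r := Nat.Coprime.pow_left _ ((Nat.coprime_primes Nat.prime_two hr).2 (Ne.symm hr2))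
        rw [← hj] at h3
        have h4 : orderOf a = 1 := Nat.Coprime.eq_one_of_dvd h3 h2
        exact orderOf_eq_one_iff.1 h4
      rintro ⟨a, ha⟩ ⟨b, hb⟩
      exact Subtype.ext ((h1 a ha).trans (h1 b hb).symm)
    exact (Finite.card_le_one_iff_subsingleton.2 this).trans hr.one_lt.le

end Cfsg.Agent.H86.Hall
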